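import Cfsg.Agent.Comp.Ru.Graph
import Cfsg.Agent.Tits.Main

/-! The point stabiliser of the Rudvalis group is `²F₄(2)`. -/

set_option autoImplicit false
set_option maxRecDepth 100000

namespace CF.Comp.Ru

open CF.Schur.Pc

theorem wfν : wfAll [ν] 4060 = true := by decide +kernel

/-- generators of `²F₄(2)` -/
noncomputable def u0 : ℕ → Tits.U := app 2 Tits.g0 Tits.g1

theorem repsU : Reps Tits.D (lapp Tits.N0 Tits.N2) u0 := reps_app Tits.reps0 Tits.reps1

theorem topU : clo u0 (gensW 3) = ⊤ := by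
  have h1 : Tits.T ≤ clo u0 (gensW 3) := (Subgroup.closure_le _).2 (by
    rintro _ ⟨i, rfl⟩
    by_cases hi : i < 2
    · have := ev_mem_clo u0 (ws := gensW 3) (w := [2 * i + 1]) (by interval_cases i <;> decide +kernel)
      rwa [ev_single, u0, app, if_pos hi] at this
    · rw [Tits.g0, if_neg hi]; exact one_mem _)
  have h2 : Tits.fU 15 ∈ clo u0 (gensW 3) := by
    have := ev_mem_clo u0 (ws := gensW 3) (w := [2 * 2 + 1]) (by decide +kernel)
    have e1 : u0 2 = Tits.g1 0 := by rw [u0, app, if_neg (by decide)]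
    have e2 : Tits.fU 15 = Tits.g1 0 := by rw [Tits.fU, slp_lt _ _ (by decide), app, if_neg (by decide)]
    rwa [ev_single, e1, ← e2] at this
  have h3 := Subgroup.index_dvd_of_le h1
  rw [Tits.index, Nat.dvd_prime Nat.prime_two] at h3
  refine Subgroup.index_eq_one.1 (h3.resolve_right fun e => Tits.out ?_)
  have h4 := Subgroup.relIndex_mul_index h1
  rw [e, Tits.index] at h4
  exact Subgroup.relIndex_eq_one.1 (by omega) h2

theorem repsS : Reps (D.sub ν wfν (by decide : 1755 ≤ 4060)) (lapp Tits.N0 Tits.N2) (evs f UW) :=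
  exact.reps.sub_of_OK (k := 11) wfν (by decide) (by decide) (by decide +kernel)

theorem exists_equiv : ∃ e : stabIn (⊤ : Subgroup K) (D.pt 0) ≃* Tits.U, ∀ g, ∀ i < 1755, ∀ j < 1755,
    g.1 • D.pt (ν.perm i) = D.pt (ν.perm j) ↔ e g • Tits.D.pt i = Tits.D.pt j := by
  obtain ⟨φ, h1, h2, -⟩ := repsS.exists_hom repsU Tits.exactU.faithful (gensW 3) le_top
  have := exact1.fin
  obtain ⟨h3, e, he⟩ := exists_equiv_of_card (H := stabIn (⊤ : Subgroup K) (D.pt 0)) (φ := φ)
    (by rw [clo_evs]; exact clo_le.2 fun w hw => ⟨trivial, exact.reps.fixW (by decide)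
      (lall_iff.1 (by decide +kernel : lall (fixW N 0) (lmap (subst UW) (gensW 3)) = true) w hw)⟩)
    (MonoidHom.range_eq_top.1 (h1.trans topU)) (card1.trans Tits.cardU.symm).le
  refine ⟨(MulEquiv.subgroupCongr h3.symm).trans e, fun g i hi j hj => ?_⟩
  obtain ⟨u, hu⟩ := exists_ev_of_mem_clo (h3.ge g.2)
  have h4 : ((MulEquiv.subgroupCongr h3.symm).trans e) g = ev u0 (subst (gensW 3) u) :=
    (he _).trans ((congrArg φ (Subtype.ext hu.symm)).trans (h2 _ (hu ▸ h3.ge g.2) trivial))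
  have h5 := (repsS.wf.supp_ev (subst (gensW 3) u)).lt hi
  rw [h4, ← hu, (repsU.acts_ev _).2 i hi]
  refine Iff.trans (Eq.congr_left ((repsS.acts_ev _).2 i hi)) ⟨fun e => ?_, fun e => ?_⟩
  · exact congrArg _ ((D.sub ν wfν (by decide : 1755 ≤ 4060)).inj _ h5 _ hj e)
  · exact congrArg (D.sub ν wfν (by decide : 1755 ≤ 4060)).pt (Tits.D.inj _ h5 _ hj e)

end CF.Comp.Ru
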